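import Cfsg.Agent.FiTwoTwoRep.Words

/-!
# The relators of Fi22 hold for the nine matrices (owner: helper52)
-/

set_option autoImplicit false
set_option maxRecDepth 100000

namespace Cfsg.Agent.FiTwoTwoRep

open Cfsg.Spor

set_option maxHeartbeats 0 in
theorem row_e : gens.all (fun y =>
    chk (chunks [(List.replicate (coxLabel Fi22.edges Fi22.Gen.e y) [Fi22.Gen.e, y]).flatten])) = true := by
  decide +kernel

set_option maxHeartbeats 0 in
theorem row_f : gens.all (fun y =>
    chk (chunks [(List.replicate (coxLabel Fi22.edges Fi22.Gen.f y) [Fi22.Gen.f, y]).flatten])) = true := by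
  decide +kernel

set_option maxHeartbeats 0 in
theorem row_g : gens.all (fun y =>
    chk (chunks [(List.replicate (coxLabel Fi22.edges Fi22.Gen.g y) [Fi22.Gen.g, y]).flatten])) = true := by
  decide +kernel

set_option maxHeartbeats 0 in
theorem row_h : gens.all (fun y =>
    chk (chunks [(List.replicate (coxLabel Fi22.edges Fi22.Gen.h y) [Fi22.Gen.h, y]).flatten])) = true := by
  decide +kernel

set_option maxHeartbeats 0 in
theorem row_i : gens.all (fun y =>
    chk (chunks [(List.replicate (coxLabel Fi22.edges Fi22.Gen.i y) [Fi22.Gen.i, y]).flatten])) = true := by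
  decide +kernel

end Cfsg.Agent.FiTwoTwoRep
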