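import Cfsg.Agent.FiTwoTwoRep.Words

/-!
# The relators of Fi22 hold for the nine matrices (owner: helper52)
-/

set_option autoImplicit false
set_option maxRecDepth 100000

namespace Cfsg.Agent.FiTwoTwoRep

open Cfsg.Spor

set_option maxHeartbeats 0 in
theorem seven_check' :
    chk (chunks (List.replicate 9 [.b, .c, .d, .e, .f, .g, .h])) = true := by
  decide +kernel

end Cfsg.Agent.FiTwoTwoRep
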