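import Cfsg.Agent.FiTwoTwoRep.ChecksA
import Cfsg.Agent.FiTwoTwoRep.ChecksB
import Cfsg.Agent.FiTwoTwoRep.ChecksC
import Cfsg.Agent.FiTwoTwoRep.ChecksD
import Cfsg.Agent.FiTwoTwoRep.ChecksE

/-!
# The relators of Fi22 hold for the nine matrices (owner: helper52)
-/

set_option autoImplicit false
set_option maxRecDepth 100000

namespace Cfsg.Agent.FiTwoTwoRep

open Cfsg.Spor

set_option maxHeartbeats 0 in
theorem cox_check : gens.all (fun x => gens.all fun y =>
    chk (chunks [(List.replicate (coxLabel Fi22.edges x y) [x, y]).flatten])) = true := by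
  rw [List.all_eq_true]
  intro x _
  cases x
  · exact row_a
  · exact row_b
  · exact row_c
  · exact row_d
  · exact row_e
  · exact row_f
  · exact row_g
  · exact row_h
  · exact row_i

end Cfsg.Agent.FiTwoTwoRep
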