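import Cfsg.Agent.FiTwoTwoRep.Words

/-!
# The relators of Fi22 hold for the nine matrices (owner: helper52)
-/

set_option autoImplicit false
set_option maxRecDepth 100000

namespace Cfsg.Agent.FiTwoTwoRep

open Cfsg.Spor

set_option maxHeartbeats 0 in
theorem sq_check : gens.all (fun x => chk (chunks [[x, x]])) = true := by decide +kernel

set_option maxHeartbeats 0 in
theorem row_a : gens.all (fun y =>
    chk (chunks [(List.replicate (coxLabel Fi22.edges Fi22.Gen.a y) [Fi22.Gen.a, y]).flatten])) = true := by
  decide +kernel

set_option maxHeartbeats 0 in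
theorem row_b : gens.all (fun y =>
    chk (chunks [(List.replicate (coxLabel Fi22.edges Fi22.Gen.b y) [Fi22.Gen.b, y]).flatten])) = true := by
  decide +kernel

set_option maxHeartbeats 0 in
theorem row_c : gens.all (fun y =>
    chk (chunks [(List.replicate (coxLabel Fi22.edges Fi22.Gen.c y) [Fi22.Gen.c, y]).flatten])) = true := by
  decide +kernel

set_option maxHeartbeats 0 in
theorem row_d : gens.all (fun y =>
    chk (chunks [(List.replicate (coxLabel Fi22.edges Fi22.Gen.d y) [Fi22.Gen.d, y]).flatten])) = true := by
  decide +kernel

end Cfsg.Agent.FiTwoTwoRep
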