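import Mathlib.Data.Matrix.Mul
import Mathlib.Data.ZMod.Basic
import Mathlib.Algebra.BigOperators.Fin
import Mathlib.Data.List.GetD
import Mathlib.Tactic

/-!
# Products of sparse matrices modulo 13 on rows packed in natural numbers (owner: helper52)

A row of a matrix of degree 78 is a natural number with 78 digits in base `2 ^ 64`; products with sparse
matrices are accumulated without carries and reduced modulo 13 after at most eight steps.
-/

set_option autoImplicit false

namespace Cfsg.Agent.FiTwoTwoRep

/-- A sparse matrix: for each row its (column, entry) pairs. -/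
abbrev SMat := List (List (ℕ × ℕ))

/-- The lane size. -/
def lane : ℕ := 18446744073709551616

/-- The entry of a sparse row. -/
def rowVal (r : List (ℕ × ℕ)) (j : ℕ) : ZMod 13 :=
  (r.map fun p => if p.1 = j then (p.2 : ZMod 13) else 0).sum

/-- The matrix of a sparse matrix. -/
def mat (A : SMat) : Matrix (Fin 78) (Fin 78) (ZMod 13) := fun i j => rowVal (A.getD i []) j

/-- Columns in range and small row sums. -/
def okS (A : SMat) : Bool :=
  A.all fun r => r.all (fun p => decide (p.1 < 78)) && decide ((r.map fun p => p.2).sum ≤ 128)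

/-- One step: the rows of a product with a sparse matrix on the left. -/
def step (A : SMat) (R : List ℕ) : List ℕ :=
  A.map fun r => (r.map fun p => p.2 * R.getD p.1 0).sum

/-- Reduction of `n` lanes modulo 13. -/
def redN : ℕ → ℕ → ℕ
  | 0, _ => 0
  | n + 1, x => x % lane % 13 + lane * redN n (x / lane)

/-- The packed identity. -/
def idRows : List ℕ := (List.range 78).map fun i => lane ^ i

/-- Products in chunks, reduced after each chunk. -/
def run : List (List SMat) → List ℕ
  | [] => idRows
  | c :: cs => (c.foldr step (run cs)).map (redN 78)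

/-- The value of a packed row. -/
def pack {n : ℕ} (l : Fin n → ℕ) : ℕ := ∑ j : Fin n, l j * lane ^ (j : ℕ)

theorem lane_pos : 0 < lane := by norm_num [lane]

theorem pack_succ {n : ℕ} (l : Fin (n + 1) → ℕ) :
    pack l = l 0 + lane * pack (fun j : Fin n => l j.succ) := by
  unfold pack
  rw [Fin.sum_univ_succ, Finset.mul_sum]
  simp only [Fin.val_zero, pow_zero, mul_one, Fin.val_succ, pow_succ]
  congr 1
  exact Finset.sum_congr rfl fun j _ => by ring

theorem redN_pack : ∀ {n : ℕ} (l : Fin n → ℕ), (∀ j, l j < lane) →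
    redN n (pack l) = pack fun j => l j % 13
  | 0, l, _ => by simp [redN, pack]
  | n + 1, l, h => by
    rw [redN, pack_succ, pack_succ, Nat.add_mul_mod_self_left, Nat.mod_eq_of_lt (h 0),
      Nat.add_mul_div_left _ _ lane_pos, Nat.div_eq_of_lt (h 0), Nat.zero_add,
      redN_pack _ fun j => h j.succ]

theorem pack_inj : ∀ {n : ℕ} (l l' : Fin n → ℕ), (∀ j, l j < lane) → (∀ j, l' j < lane) →
    pack l = pack l' → l = l'
  | 0, l, l', _, _, _ => funext fun j => j.elim0
  | n + 1, l, l', h, h', e => by
    rw [pack_succ, pack_succ] at e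
    have e0 := congrArg (· % lane) e
    simp only [Nat.add_mul_mod_self_left, Nat.mod_eq_of_lt (h 0), Nat.mod_eq_of_lt (h' 0)] at e0
    have e1 := congrArg (· / lane) e
    simp only [Nat.add_mul_div_left _ _ lane_pos, Nat.div_eq_of_lt (h 0),
      Nat.div_eq_of_lt (h' 0), Nat.zero_add] at e1
    have e2 := pack_inj _ _ (fun j => h j.succ) (fun j => h' j.succ) e1
    funext j
    refine Fin.cases e0 (fun i => ?_) j
    exact congrFun e2 i

/-- `R` holds `M` with lanes at most `b`. -/
def Holds (R : List ℕ) (M : Matrix (Fin 78) (Fin 78) (ZMod 13)) (b : ℕ) : Prop :=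
  ∀ i : Fin 78, ∃ l : Fin 78 → ℕ, R.getD i 0 = pack l ∧ ∀ j, l j ≤ b ∧ (l j : ZMod 13) = M i j

theorem holds_id : Holds idRows 1 12 := by
  intro i
  refine ⟨fun j => if i = j then 1 else 0, ?_, fun j => ?_⟩
  · simp [idRows, pack, List.getD_eq_getElem?_getD, ite_mul]
  · by_cases h : i = j <;> simp [h, Matrix.one_apply]

theorem holds_step {A : SMat} (hA : okS A = true) {R : List ℕ} {M : Matrix (Fin 78) (Fin 78) (ZMod 13)}
    {b : ℕ} (h : Holds R M b) : Holds (step A R) (mat A * M) (128 * b) := by
  intro i
  have hr : ∀ p ∈ A.getD i [], p.1 < 78 := by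
    intro p hp
    by_cases hi : (i : ℕ) < A.length
    · rw [List.getD_eq_getElem _ _ hi] at hp
      have := List.all_eq_true.1 hA _ (List.getElem_mem hi)
      rw [Bool.and_eq_true, List.all_eq_true] at this
      exact of_decide_eq_true (this.1 p hp)
    · rw [List.getD_eq_default _ _ (not_lt.1 hi)] at hp
      simp at hp
  have hw : ((A.getD i []).map fun p => p.2).sum ≤ 128 := by
    by_cases hi : (i : ℕ) < A.length
    · rw [List.getD_eq_getElem _ _ hi]
      have := List.all_eq_true.1 hA _ (List.getElem_mem hi)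
      rw [Bool.and_eq_true] at this
      exact of_decide_eq_true this.2
    · rw [List.getD_eq_default _ _ (not_lt.1 hi)]
      simp
  have hs : (step A R).getD i 0 = ((A.getD i []).map fun p => p.2 * R.getD p.1 0).sum := by
    have e := List.getD_map (l := A) (d := []) (n := (i : ℕ))
      (fun r : List (ℕ × ℕ) => (r.map fun p => p.2 * R.getD p.1 0).sum)
    simpa [step] using e
  have hM : (mat A * M) i = fun j => ∑ k : Fin 78, rowVal (A.getD i []) k * M k j := by
    funext j; rfl
  rw [hs, hM]
  suffices key : ∀ r : List (ℕ × ℕ), (∀ p ∈ r, p.1 < 78) → ∃ l : Fin 78 → ℕ,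
      (r.map fun p => p.2 * R.getD p.1 0).sum = pack l ∧
        ∀ j, l j ≤ (r.map fun p => p.2).sum * b ∧
          (l j : ZMod 13) = ∑ k : Fin 78, rowVal r k * M k j by
    obtain ⟨l, e, hl⟩ := key _ hr
    exact ⟨l, e, fun j => ⟨(hl j).1.trans (Nat.mul_le_mul_right _ hw), (hl j).2⟩⟩
  intro r
  induction r with
  | nil => exact fun _ => ⟨fun _ => 0, by simp [pack], fun j => by simp [rowVal]⟩
  | cons p r ih =>
    intro hp
    obtain ⟨l, e, hl⟩ := ih fun q hq => hp q (List.mem_cons_of_mem _ hq)
    obtain ⟨l', e', hl'⟩ := h ⟨p.1, hp p (by simp)⟩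
    refine ⟨fun j => p.2 * l' j + l j, ?_, fun j => ⟨?_, ?_⟩⟩
    · rw [List.map_cons, List.sum_cons, e, show R.getD p.1 0 = pack l' from e']
      unfold pack
      rw [Finset.mul_sum, ← Finset.sum_add_distrib]
      exact Finset.sum_congr rfl fun j _ => by ring
    · rw [List.map_cons, List.sum_cons, add_mul]
      exact Nat.add_le_add (Nat.mul_le_mul_left _ (hl' j).1) (hl j).1
    · push_cast
      rw [(hl' j).2, (hl j).2]
      simp only [rowVal, List.map_cons, List.sum_cons, add_mul, Finset.sum_add_distrib]
      have e0 : ∑ k : Fin 78, (if p.1 = (k : ℕ) then (p.2 : ZMod 13) else 0) * M k j =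
          (p.2 : ZMod 13) * M ⟨p.1, hp p (by simp)⟩ j := by
        rw [Finset.sum_eq_single (⟨p.1, hp p (by simp)⟩ : Fin 78)]
        · simp
        · intro k _ hk
          have : p.1 ≠ (k : ℕ) := fun e => hk (Fin.ext e.symm)
          simp [this]
        · simp
      rw [e0]

theorem holds_chunk : ∀ (c : List SMat), (∀ A ∈ c, okS A = true) → ∀ {R : List ℕ}
    {M : Matrix (Fin 78) (Fin 78) (ZMod 13)} {b : ℕ}, Holds R M b →
    Holds (c.foldr step R) ((c.map mat).prod * M) (128 ^ c.length * b)
  | [], _, R, M, b, h => by simpa using h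
  | A :: c, hc, R, M, b, h => by
    have h1 := holds_step (hc A (by simp)) (holds_chunk c (fun B hB => hc B (by simp [hB])) h)
    simp only [List.foldr_cons, List.map_cons, List.prod_cons, List.length_cons, pow_succ']
    rw [mul_assoc, mul_assoc]
    exact h1

/-- The chunks are fit for `run`. -/
def okChunks (cs : List (List SMat)) : Bool :=
  cs.all fun c => decide (c.length ≤ 8) && c.all okS

theorem holds_run : ∀ cs : List (List SMat), okChunks cs = true →
    Holds (run cs) ((cs.flatten.map mat).prod) 12
  | [], _ => by simpa [run] using holds_id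
  | c :: cs, h => by
    simp only [okChunks, List.all_cons, Bool.and_eq_true, decide_eq_true_eq, List.all_eq_true] at h
    have h0 : okChunks cs = true := by
      simp only [okChunks, List.all_eq_true, Bool.and_eq_true, decide_eq_true_eq]
      exact h.2
    have h1 := holds_chunk c h.1.2 (holds_run cs h0)
    intro i
    obtain ⟨l, e, hl⟩ := h1 i
    have hlt : ∀ j, l j < lane := fun j => lt_of_le_of_lt ((hl j).1.trans
      (Nat.mul_le_mul_right _ (Nat.pow_le_pow_right (by norm_num) h.1.1))) (by norm_num [lane])
    refine ⟨fun j => l j % 13, ?_, fun j => ⟨?_, ?_⟩⟩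
    · have e0 : redN 78 0 = 0 := by decide +kernel
      have e' := List.getD_map (l := c.foldr step (run cs)) (d := 0) (n := (i : ℕ)) (redN 78)
      rw [e0] at e'
      rw [run, e', e, redN_pack l hlt]
    · exact Nat.le_of_lt_succ (Nat.mod_lt _ (by norm_num))
    · rw [ZMod.natCast_mod, (hl j).2, List.flatten_cons, List.map_append, List.prod_append]

theorem prod_eq_one {cs : List (List SMat)} (h : okChunks cs = true) (e : run cs = idRows) :
    (cs.flatten.map mat).prod = 1 := by
  ext i j
  obtain ⟨l, e1, hl⟩ := holds_run cs h i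
  obtain ⟨l', e2, hl'⟩ := holds_id i
  have := pack_inj l l' (fun j => lt_of_le_of_lt (hl j).1 (by norm_num [lane]))
    (fun j => lt_of_le_of_lt (hl' j).1 (by norm_num [lane])) (by rw [← e1, ← e2, e])
  rw [← (hl j).2, ← (hl' j).2, this]

/-- The check of a relator. -/
def chk (cs : List (List SMat)) : Bool := okChunks cs && decide (run cs = idRows)

theorem prod_of_chk {cs : List (List SMat)} (h : chk cs = true) : (cs.flatten.map mat).prod = 1 := by
  rw [chk, Bool.and_eq_true, decide_eq_true_eq] at h
  exact prod_eq_one h.1 h.2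

end Cfsg.Agent.FiTwoTwoRep
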