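import Cfsg.Agent.FiTwoTwoRep.Checks
import Cfsg.Agent.CosetEnum.FiTwentyTwo.Main
import Mathlib.LinearAlgebra.Matrix.GeneralLinearGroup.Defs

/-!
# The presented group Fi22 inside GL(78, 13) (owner: helper52)
-/

set_option autoImplicit false
set_option maxRecDepth 100000

namespace Cfsg.Agent.FiTwoTwoRep

open Cfsg.Spor

/-- The matrix of a generator. -/
def genM (x : Fi22.Gen) : Matrix (Fin 78) (Fin 78) (ZMod 13) := mat (genS x)

theorem prod_of_chunks {ws : List (List Fi22.Gen)} (h : chk (chunks ws) = true) :
    (ws.flatten.map genM).prod = 1 := by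
  have h1 := prod_of_chk h
  rw [chunks, ← List.map_flatten, List.map_map] at h1
  exact h1

theorem genM_sq (x : Fi22.Gen) : genM x * genM x = 1 := by
  have := prod_of_chunks (List.all_eq_true.1 sq_check x (mem_gens x))
  simpa using this

/-- A generator as an invertible matrix. -/
def genU (x : Fi22.Gen) : GL (Fin 78) (ZMod 13) := ⟨genM x, genM x, genM_sq x, genM_sq x⟩

theorem val_lift (w : List Fi22.Gen) :
    ((FreeGroup.lift genU (w.map FreeGroup.of).prod : GL (Fin 78) (ZMod 13)) :
      Matrix (Fin 78) (Fin 78) (ZMod 13)) = (w.map genM).prod := by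
  induction w with
  | nil => simp
  | cons x w ih =>
    rw [List.map_cons, List.prod_cons, map_mul, Units.val_mul, ih, FreeGroup.lift_apply_of,
      List.map_cons, List.prod_cons]
    rfl

theorem prod_pow_word (w : List Fi22.Gen) : ∀ n : ℕ,
    (((List.replicate n w).flatten).map genM).prod = (w.map genM).prod ^ n
  | 0 => by simp
  | n + 1 => by
    rw [List.replicate_succ, List.flatten_cons, List.map_append, List.prod_append, prod_pow_word w n,
      pow_succ']

theorem lift_pow_eq_one {w : List Fi22.Gen} {n : ℕ} {ws : List (List Fi22.Gen)}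
    (hws : ws.flatten = (List.replicate n w).flatten) (h : chk (chunks ws) = true) :
    FreeGroup.lift genU ((w.map FreeGroup.of).prod ^ n) = 1 := by
  refine Units.ext ?_
  rw [map_pow, Units.val_pow_eq_pow_val, val_lift, ← prod_pow_word, ← hws, prod_of_chunks h]
  rfl

theorem relators_ok : ∀ r ∈ coxRelators Fi22.edges ∪ {r | r ∈ Fi22.extra},
    FreeGroup.lift genU r = 1 := by
  rintro r (⟨x, -, y, -, rfl⟩ | hr)
  · have h := List.all_eq_true.1 (List.all_eq_true.1 cox_check x (mem_gens x)) y (mem_gens y)
    have := lift_pow_eq_one (w := [x, y]) (n := coxLabel Fi22.edges x y) (by simp) h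
    simpa using this
  · simp only [Fi22.extra, Set.mem_setOf_eq, List.mem_cons, List.not_mem_nil, or_false] at hr
    rcases hr with rfl | rfl | rfl
    · have := lift_pow_eq_one (w := [.d, .c, .b, .d, .e, .f, .d, .h, .i]) (n := 10)
        (by decide +kernel) spider_check
      simpa [mul_assoc] using this
    · have := lift_pow_eq_one (w := [.a, .b, .c, .d, .e, .f, .h]) (n := 9) rfl seven_check
      simpa [mul_assoc] using this
    · have := lift_pow_eq_one (w := [.b, .c, .d, .e, .f, .g, .h]) (n := 9) rfl seven_check'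
      simpa [mul_assoc] using this

/-- The representation. -/
def rep : Fi22 →* GL (Fin 78) (ZMod 13) := PresentedGroup.toGroup relators_ok

theorem genM_a_ne_one : genM .a ≠ 1 := by
  intro h
  have hd : ∃ i : Fin 78, genM .a i i ≠ 1 := by decide +kernel
  obtain ⟨i, hi⟩ := hd
  exact hi (by rw [h, Matrix.one_apply_eq])

theorem rep_injective : Function.Injective rep := by
  haveI : IsSimpleGroup Fi22 := CosetEnum.FiTwentyTwo.main.1
  rw [← MonoidHom.ker_eq_bot_iff]
  refine (MonoidHom.normal_ker rep).eq_bot_or_eq_top.resolve_right fun h => genM_a_ne_one ?_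
  have h1 : PresentedGroup.of Fi22.Gen.a ∈ rep.ker := h ▸ Subgroup.mem_top _
  rw [MonoidHom.mem_ker, rep, PresentedGroup.toGroup.of] at h1
  exact congrArg Units.val h1

end Cfsg.Agent.FiTwoTwoRep
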