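import Cfsg.Agent.FiTwoTwoRep.Data

/-!
# Words of relators for the nine matrices (owner: helper52)
-/

set_option autoImplicit false
set_option maxRecDepth 100000

namespace Cfsg.Agent.FiTwoTwoRep

open Cfsg.Spor

/-- The two-chunk word of a relator. -/
def chunks (ws : List (List Fi22.Gen)) : List (List SMat) := ws.map fun w => w.map genS

/-- All generators. -/
def gens : List Fi22.Gen := [.a, .b, .c, .d, .e, .f, .g, .h, .i]

theorem mem_gens (x : Fi22.Gen) : x ∈ gens := by cases x <;> simp [gens]

end Cfsg.Agent.FiTwoTwoRep
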